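import Cfsg.Agent.H903.Ore.Large
import Cfsg.Agent.H529.Inv.Coset

/-!
# Products of four involutions in `C(z)`, `Q = O₂(C(z))` extraspecial (S4171, helper569)

Analogue of `H903.Ore.Large` for `I4`:

* `i4_es` : `c ∈ a b Q` with `a`, `b` strongly real, `⟨a, b⟩` without fixed points on `Q/⟨z⟩`;
* `i2_in` : the elements of `Q` are strongly real (`|Q/⟨z⟩| > 4`);
* `i4_cent`, `i4_two` : all elements (2-elements) of `C(z)` from a table in `C(z)/Q` of pairs of elements of prime order `p`,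
  when every element of order `p` of `C(z)` is inverted by an element of square one of `C(z)`.
-/

set_option autoImplicit false

namespace Cfsg.Agent.H569.Inv

open Cfsg.Agent.Co2Type.Quad (Large)
open Cfsg.Agent.H6.ORE Cfsg.Agent.H903.Ore.Large
open Cfsg.Agent.H529.Inv (I2)

universe u

/-- **The coset lemma.** -/
theorem i4_es {H : Type u} [Group H] {Q : Subgroup H} {z : H} (h : ES Q z) {a b c : H} (hfp : FPz Q z a b)
    (ha : I2 a) (hb : I2 b) (hc : (a * b)⁻¹ * c ∈ Q) : H777.Ore.I4 c := by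
  have hn := h.normal
  have hz := h.normal_zpowers
  let N : ℕ → Subgroup H := fun i => if i = 0 then Subgroup.zpowers z else Q
  have hN : ∀ i, (N i).Normal := by
    intro i
    show (if i = 0 then Subgroup.zpowers z else Q).Normal
    split_ifs
    · exact hz
    · exact hn
  have N0 : N 0 = Subgroup.zpowers z := rfl
  have N1 : N 1 = Q := rfl
  have hle : Subgroup.zpowers z ≤ Q := by
    rw [Subgroup.zpowers_le]; exact h.mem
  have key := H529.Inv.coset_two_central (a := a) (b := b) N 1 ha hb (by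
      rw [N0]
      intro x hx
      rcases h.mem_zpowers.1 hx with rfl | rfl
      · exact ⟨by simp, fun g => by simp⟩
      · exact ⟨h.sq, fun g => (h.central g).symm⟩) (by
      intro i hi
      obtain rfl : i = 0 := by omega
      exact hle) (by
      intro i hi x hx y hy
      obtain rfl : i = 0 := by omega
      rw [N0, h.mem_zpowers, commutatorElement_def]
      rw [show (0 : ℕ) + 1 = 1 from rfl, N1] at hx
      rw [N1] at hy
      rcases h.comm x hx y hy with e | e
      · left; rw [e]; group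
      · right
        rw [e, mul_assoc (y * x), ← h.central, mul_assoc, mul_assoc]
        have : y * (x * (x⁻¹ * z * y⁻¹)) = y * (z * y⁻¹) := by group
        rw [this, ← h.central y⁻¹]
        group) (by
      intro i hi
      obtain rfl : i = 0 := by omega
      show Q ≤ _
      intro w hw
      obtain ⟨u, hu, v, hv, ζ, hζ, e⟩ := hfp w hw
      rw [e]
      refine Subgroup.mul_mem _ (Subgroup.mul_mem _ ?_ ?_) ?_
      · refine Subgroup.mem_sup_right (Subgroup.subset_closure ⟨u, hu, b, by simp, ?_⟩)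
        rw [commutatorElement_def]; group
      · refine Subgroup.mem_sup_right (Subgroup.subset_closure ⟨v, hv, a, by simp, ?_⟩)
        rw [commutatorElement_def]; group
      · refine Subgroup.mem_sup_left ?_
        show ζ ∈ Subgroup.zpowers z
        exact h.mem_zpowers.2 hζ) (n := (a * b)⁻¹ * c) hc
  rw [mul_inv_cancel_left] at key
  exact key

section

variable {K : Type u} [Group K] {Q : Subgroup K} {z : K}

/-- an involution of `Q` which does not commute with an element of order four of `Q` -/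
theorem exists_inv [Finite Q] (h : Large Q z) (hcard : 8 < Nat.card Q) {q : K} (hq : q ∈ Q) (hqq : q * q = z) :
    ∃ y ∈ Q, y * y = 1 ∧ q * y = y * q * z := by
  -- the quadratic space
  set v₀ := h.pr ⟨q, hq⟩ with hv₀
  have hq1 : h.q v₀ = 1 := h.q_eq_one.2 hqq
  have two : ∀ s : ZMod 2, s = 0 ∨ s = 1 := by decide
  by_contra hno
  push Not at hno
  -- all vectors not orthogonal to `v₀` are non-singular
  have H : ∀ v : h.V, h.b v₀ v = 1 → h.q v = 1 := by
    intro v hv
    obtain ⟨y, rfl⟩ := h.pr_surjective v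
    rcases two (h.q (h.pr y)) with e | e
    · exfalso
      have e1 := h.q_eq_zero.1 e
      have e2 := h.b_pr_one ⟨q, hq⟩ y
      exact hno y y.2 e1 (e2.1 hv)
    · exact e
  have hv0 : v₀ ≠ 0 := by
    intro e
    rw [e, h.q_zero] at hq1
    exact absurd hq1 (by decide)
  obtain ⟨v, hv⟩ : ∃ v, h.b v₀ v = 1 := by
    by_contra hcon
    push Not at hcon
    exact hv0 (h.b_nondeg fun w => (two _).resolve_right (hcon w))
  -- a vector outside the span
  have hV : 4 < Nat.card h.V := by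
    have := h.card_eq
    omega
  obtain ⟨u, hu⟩ : ∃ u : h.V, u ≠ 0 ∧ u ≠ v₀ ∧ u ≠ v ∧ u ≠ v₀ + v := by
    by_contra hcon
    push Not at hcon
    classical
    have hfin : Finite h.V := Nat.finite_of_card_ne_zero (by omega)
    have : Nat.card h.V ≤ Nat.card (Fin 4) := by
      refine Nat.card_le_card_of_surjective (fun i : Fin 4 => ![0, v₀, v, v₀ + v] i) fun w => ?_
      by_cases h1 : w = 0
      · exact ⟨0, by simp [h1]⟩
      by_cases h2 : w = v₀
      · exact ⟨1, by simp [h2]⟩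
      by_cases h3 : w = v
      · exact ⟨2, by simp [h3]⟩
      · exact ⟨3, by simp [hcon w h1 h2 h3]⟩
    rw [Nat.card_fin] at this
    omega
  -- the projection to the orthogonal complement
  have bself : ∀ w, h.b w w = 0 := h.b_self
  have tw : ∀ s : ZMod 2, s + s = 0 := by decide
  have P : ∀ w : h.V, ∃ w' : h.V, h.b v₀ w' = 0 ∧ h.b v w' = 0 ∧ (∀ x, h.b v₀ x = 0 → h.b v x = 0 → h.b x w' = h.b x w) ∧
      (w' = w ∨ w' = w + v₀ ∨ w' = w + v ∨ w' = w + v₀ + v) := by
    intro w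
    have hvv : h.b v v₀ = 1 := by rw [h.b_comm]; exact hv
    rcases two (h.b v₀ w) with e1 | e1 <;> rcases two (h.b v w) with e2 | e2
    · exact ⟨w, e1, e2, fun _ _ _ => rfl, Or.inl rfl⟩
    · refine ⟨w + v₀, by rw [map_add, e1, bself, add_zero], by rw [map_add, e2, hvv]; decide, ?_, Or.inr (Or.inl rfl)⟩
      intro x hx _
      rw [map_add, h.b_comm x v₀, hx, add_zero]
    · refine ⟨w + v, by rw [map_add, e1, hv]; decide, by rw [map_add, e2, bself, add_zero], ?_,
        Or.inr (Or.inr (Or.inl rfl))⟩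
      intro x _ hx
      rw [map_add, h.b_comm x v, hx, add_zero]
    · refine ⟨w + v₀ + v, by rw [map_add, map_add, e1, bself, hv]; decide,
        by rw [map_add, map_add, e2, bself, hvv]; decide, ?_, Or.inr (Or.inr (Or.inr rfl))⟩
      intro x hx hx'
      rw [map_add, map_add, h.b_comm x v₀, h.b_comm x v, hx, hx', add_zero, add_zero]
  have hzero : ∀ w, h.b v₀ w = 0 → h.b v w = 0 → h.q w = 0 := by
    intro w e1 e2
    have h1 := H v hv
    have h2 := H (v + w) (by rw [map_add, hv, e1, add_zero])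
    rw [h.q_add', h1, e2, add_zero] at h2
    rcases two (h.q w) with e | e
    · exact e
    · rw [e] at h2; exact absurd h2 (by decide)
  obtain ⟨u', hu1, hu2, -, hu4⟩ := P u
  have hu0 : u' ≠ 0 := by
    intro e
    have add2 : ∀ x y : h.V, x + y = 0 → x = y := by
      intro x y hxy
      have h1 := congrArg (fun t => t + y) hxy
      simpa [add_assoc, h.add_self] using h1
    rcases hu4 with e' | e' | e' | e'
    · exact hu.1 (by rw [← e', e])
    · exact hu.2.1 (add2 _ _ (by rw [← e', e]))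
    · exact hu.2.2.1 (add2 _ _ (by rw [← e', e]))
    · exact hu.2.2.2 (add2 _ _ (by rw [← add_assoc, ← e', e]))
  obtain ⟨w, hw⟩ : ∃ w, h.b u' w = 1 := by
    by_contra hcon
    push Not at hcon
    exact hu0 (h.b_nondeg fun w => (two _).resolve_right (hcon w))
  obtain ⟨w', hw1, hw2, hw3, -⟩ := P w
  have hw4 := hw3 u' hu1 hu2
  have e1 := hzero u' hu1 hu2
  have e2 := hzero w' hw1 hw2
  have e3 := hzero (u' + w') (by rw [map_add, hu1, hw1, add_zero]) (by rw [map_add, hu2, hw2, add_zero])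
  rw [h.q_add', e1, e2, hw4, hw] at e3
  exact absurd e3 (by decide)

/-- **The elements of `Q`.** -/
theorem i2_in [Finite Q] (h : Large Q z) (hcard : 8 < Nat.card Q) {q : K} (hq : q ∈ Q) : I2 q := by
  rcases h.sq q hq with e | e
  · exact ⟨q, 1, e, by simp, by simp⟩
  · obtain ⟨y, -, hyy, hc⟩ := exists_inv h hcard hq e
    refine I2.of_inv hyy ?_
    have hyi : y⁻¹ = y := inv_eq_of_mul_eq_one_left hyy
    have h1 : q⁻¹ = q * z := by
      rw [inv_eq_iff_mul_eq_one, ← mul_assoc, e, h.z_sq]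
    have h2 : y * q * z = q * y := hc.symm
    have h3 : q * z = z * q := h.comm_z q hq
    rw [h1, hyi]
    calc y * q * y = y * (q * y) := by group
      _ = y * (y * q * z) := by rw [← h2]
      _ = (y * y) * q * z := by group
      _ = q * z := by rw [hyy, one_mul]

theorem i4_of_i2 {G : Type*} [Group G] {g : G} (h : I2 g) : H777.Ore.I4 g := by
  obtain ⟨s, t, hs, ht, e⟩ := h
  exact ⟨s, t, 1, 1, hs, ht, by simp, by simp, by simp [e]⟩

theorem i4_map {G H : Type*} [Group G] [Group H] (f : G →* H) {g : G} (h : H777.Ore.I4 g) : H777.Ore.I4 (f g) :=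
  H529.Inv.I4.map f h

theorem i4_conj {G : Type*} [Group G] {g : G} (h : H777.Ore.I4 g) (x : G) : H777.Ore.I4 (x * g * x⁻¹) :=
  H529.Inv.I4.conj h x

theorem i4_of_conj {G : Type*} [Group G] {g : G} (x : G) (h : H777.Ore.I4 (x * g * x⁻¹)) : H777.Ore.I4 g := by
  have := i4_conj h x⁻¹
  rwa [show x⁻¹ * (x * g * x⁻¹) * x⁻¹⁻¹ = g by group] at this

variable {L : Type*} [Group L] {π : CZ z →* L}

/-- a lift of an element of odd order `p` with the same order -/
theorem exists_lift (h : Large Q z) (hs : Function.Surjective π) (hk : ∀ c, π c = 1 ↔ (c : K) ∈ Q) {p : ℕ}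
    (hp : p.Prime) (hodd : Odd p) {a₀ : L} (ha : orderOf a₀ = p) : ∃ a : CZ z, π a = a₀ ∧ orderOf a = p := by
  obtain ⟨c, rfl⟩ := hs a₀
  have h1 : ((c ^ p : CZ z) : K) ∈ Q := by
    rw [← hk, map_pow, ← ha, pow_orderOf_eq_one]
  have h4 : (c ^ p) ^ 4 = 1 := by
    apply Subtype.ext
    have h2 : ((c ^ p : CZ z) : K) ^ 4 = 1 := by
      rw [show (4 : ℕ) = 2 * 2 from rfl, pow_mul, pow_two, pow_two]
      rcases h.sq _ h1 with e | e
      · rw [e]; simp
      · rw [e, h.z_sq]
    exact_mod_cast h2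
  -- an exponent `m` divisible by four, `m = 1` modulo `p`
  have hco : Nat.Coprime 4 p := by
    rw [show (4 : ℕ) = 2 ^ 2 from rfl]
    exact Nat.Coprime.pow_left 2 (Nat.coprime_two_left.2 hodd)
  obtain ⟨m, hm1, hm2⟩ := Nat.chineseRemainder hco 0 1
  have hm1' : 4 ∣ m := (Nat.modEq_zero_iff_dvd).1 hm1
  have hπ : π (c ^ m) = π c := by
    rw [map_pow]
    have h5 : m ≡ 1 [MOD orderOf (π c)] := by rw [ha]; exact hm2
    have := pow_eq_pow_iff_modEq.2 h5
    rwa [pow_one] at this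
  refine ⟨c ^ m, hπ, ?_⟩
  have h6 : (c ^ m) ^ p = 1 := by
    rw [← pow_mul, mul_comm, pow_mul]
    obtain ⟨k, rfl⟩ := hm1'
    rw [pow_mul, h4, one_pow]
  refine orderOf_eq_prime h6 ?_ (hp := ⟨hp⟩)
  intro h7
  rw [h7, map_one] at hπ
  rw [← hπ, orderOf_one] at ha
  exact hp.one_lt.ne ha

/-- **Elements outside `Q`.** -/
theorem i4_out [Finite Q] (h : Large Q z) (hk : ∀ c, π c = 1 ↔ (c : K) ∈ Q)
    {r n : ℕ} (hr : r.Prime) (hodd : Odd r) (hcard : Nat.card Q = 2 ^ (n + 1)) (har : Ar r n) {g a b : CZ z}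
    (e : π g = π a * π b) {y : L}
    (hy : y ∈ Subgroup.closure ({π a, π b} : Set L)) (hyr : orderOf y = r) (ha : I2 a) (hb : I2 b) :
    H777.Ore.I4 (g : K) := by
  have hE := es_of_large h
  have hfin : Finite (Q.subgroupOf (CZ z)) := finQ
  -- a lift of `y`
  obtain ⟨d, hd, rfl⟩ : y ∈ (Subgroup.closure ({a, b} : Set (CZ z))).map π := by
    rw [MonoidHom.map_closure, Set.image_pair]
    exact hy
  have hd1 : ((d ^ r : CZ z) : K) ∈ Q := by
    rw [← hk, map_pow, ← hyr, pow_orderOf_eq_one]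
  have hd2 : (d : K) ∉ Q := by
    intro hdQ
    rw [← hk] at hdQ
    rw [hdQ, orderOf_one] at hyr
    exact hr.one_lt.ne hyr
  have hfp : FPz (Q.subgroupOf (CZ z)) (zC z) a b := by
    apply FPz.of_fix hE
    intro x hx hxa hxb
    have hxQ : (x : K) ∈ Q := hx
    have h1 := act_fix h a (x := ⟨x, hxQ⟩) (hxa.imp (congrArg Subtype.val) (congrArg Subtype.val))
    have h2 := act_fix h b (x := ⟨x, hxQ⟩) (hxb.imp (congrArg Subtype.val) (congrArg Subtype.val))
    have h3 : Subgroup.closure ({a, b} : Set (CZ z)) ≤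
        (MulAction.stabilizer (h.V ≃ₗ[ZMod 2] h.V) (h.pr ⟨x, hxQ⟩)).comap h.act := by
      rw [Subgroup.closure_le]
      rintro _ (rfl | rfl)
      · exact h1
      · exact h2
    have h4 : h.act d (h.pr ⟨x, hxQ⟩) = h.pr ⟨x, hxQ⟩ := h3 hd
    have h5 := fpf h hr hodd hcard har hd1 hd2 h4
    rcases h.pr_eq_zero.1 h5 with h6 | h6
    · exact Or.inl (Subtype.ext h6)
    · exact Or.inr (Subtype.ext h6)
  have := i4_es hE hfp ha hb (c := g) (by
    show (((a * b)⁻¹ * g : CZ z) : K) ∈ Q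
    rw [← hk, map_mul, map_inv, e, map_mul]
    simp)
  exact i4_map (CZ z).subtype this

/-- a product of two elements of order `p` generating a group with an element of order `r` -/
def F4 (p r : ℕ) {L : Type*} [Group L] (l : L) : Prop :=
  ∃ a b : L, l = a * b ∧ orderOf a = p ∧ orderOf b = p ∧ ∃ y ∈ Subgroup.closure ({a, b} : Set L), orderOf y = r

theorem F4.map {p r : ℕ} {L L' : Type*} [Group L] [Group L'] (f : L ≃* L') {l : L} (h : F4 p r l) : F4 p r (f l) := by
  obtain ⟨a, b, e, ha, hb, y, hy, hyr⟩ := h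
  refine ⟨f a, f b, by rw [e, map_mul], by rw [MulEquiv.orderOf_eq, ha], by rw [MulEquiv.orderOf_eq, hb],
    f y, ?_, by rw [MulEquiv.orderOf_eq, hyr]⟩
  have h1 : f y ∈ (Subgroup.closure ({a, b} : Set L)).map f.toMonoidHom := ⟨y, hy, rfl⟩
  rw [MonoidHom.map_closure, Set.image_pair] at h1
  exact h1

theorem F4.conj {p r : ℕ} {L : Type*} [Group L] {l : L} (h : F4 p r l) (x : L) : F4 p r (x * l * x⁻¹) :=
  F4.map (MulAut.conj x) h

theorem F4.of_dvd {p r : ℕ} (hr : r.Prime) {L : Type*} [Group L] [Finite L] {l a b : L} (e : l = a * b)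
    (ha : orderOf a = p) (hb : orderOf b = p) (h : r ∣ Nat.card (Subgroup.closure ({a, b} : Set L))) : F4 p r l := by
  have : Fact r.Prime := ⟨hr⟩
  obtain ⟨y, hy⟩ := exists_prime_orderOf_dvd_card' r h
  exact ⟨a, b, e, ha, hb, y, y.2, by rw [Subgroup.orderOf_coe, hy]⟩

/-- **All elements of `C(z)`.** -/
theorem i4_cent [Finite Q] (h : Large Q z) (hs : Function.Surjective π) (hk : ∀ c, π c = 1 ↔ (c : K) ∈ Q)
    {p r n : ℕ} (hp : p.Prime) (hpo : Odd p) (hSR : ∀ x : CZ z, orderOf x = p → I2 x)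
    (hr : r.Prime) (hodd : Odd r) (hcard : Nat.card Q = 2 ^ (n + 1)) (hn : 2 < n) (har : Ar r n)
    (g : CZ z) (hO : π g ≠ 1 → F4 p r (π g)) : H777.Ore.I4 (g : K) := by
  by_cases h1 : π g = 1
  · refine i4_of_i2 (i2_in h ?_ ((hk g).1 h1))
    rw [hcard]
    calc 8 = 2 ^ 3 := rfl
      _ < 2 ^ (n + 1) := Nat.pow_lt_pow_right (by norm_num) (by omega)
  · obtain ⟨a₀, b₀, e, ha, hb, y, hy, hyr⟩ := hO h1
    obtain ⟨a, rfl, ha'⟩ := exists_lift h hs hk hp hpo ha
    obtain ⟨b, rfl, hb'⟩ := exists_lift h hs hk hp hpo hb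
    exact i4_out h hk hr hodd hcard har e hy hyr (hSR a ha') (hSR b hb')

/-- **The 2-elements.** -/
theorem i4_two [Finite K] (h : Large Q z) (hs : Function.Surjective π) (hk : ∀ c, π c = 1 ↔ (c : K) ∈ Q)
    {p r n : ℕ} (hp : p.Prime) (hpo : Odd p) (hSR : ∀ x : CZ z, orderOf x = p → I2 x)
    (hr : r.Prime) (hodd : Odd r) (hcard : Nat.card Q = 2 ^ (n + 1)) (hn : 2 < n) (har : Ar r n)
    (hi : Odd (CZ z).index)
    (hO : ∀ l : L, l ≠ 1 → (∃ k : ℕ, orderOf l = 2 ^ k) → F4 p r l) {g : K} (hg : ∃ k : ℕ, orderOf g = 2 ^ k) :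
    H777.Ore.I4 g := by
  obtain ⟨u, hu⟩ := exists_conj_mem hi hg
  refine i4_of_conj u ?_
  refine i4_cent h hs hk hp hpo hSR hr hodd hcard hn har ⟨u * g * u⁻¹, hu⟩ fun h1 => hO _ h1 ?_
  obtain ⟨k, hk'⟩ := hg
  have ho : orderOf (⟨u * g * u⁻¹, hu⟩ : CZ z) = 2 ^ k := by
    rw [← Subgroup.orderOf_coe, ← hk']
    show orderOf (u * g * u⁻¹) = orderOf g
    rw [show u * g * u⁻¹ = MulAut.conj u g from rfl, MulEquiv.orderOf_eq]
  have h2 : orderOf (π ⟨u * g * u⁻¹, hu⟩) ∣ 2 ^ k := by rw [← ho]; exact orderOf_map_dvd π _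
  obtain ⟨j, -, hj⟩ := (Nat.dvd_prime_pow Nat.prime_two).1 h2
  exact ⟨j, hj⟩

end

end Cfsg.Agent.H569.Inv
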