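import Cfsg.Agent.H569.Inv.Large4

/-!
# Strong reality in `C(z)`, `Q = O₂(C(z))` extraspecial (S4171, helper569)

* `exists_conj_mem_of_coset` : two elements of order `r` in the same coset of a normal `r'`-subgroup `N` are `N`-conjugate;
* `core` : the computation in the dihedral group `⟨s, u⟩` of order eight;
* `i2_of_order` : `x` of prime order `p` in `C(z)`, self-centralizing and real modulo `Q`, `|C_Q(x)| = 8`, `S ⊆ Q` an invariant
  set of involutions with `|S| ≡ 2` modulo `p`: `x` is inverted by an element of square one of `C(z)`.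
-/

set_option autoImplicit false

namespace Cfsg.Agent.H569.Inv

open Cfsg.Agent.Co2Type.Quad (Large)
open Cfsg.Agent.H6.ORE Cfsg.Agent.H903.Ore.Large
open Cfsg.Agent.H529.Inv (I2)

universe u

/-- two elements of order `r` in the same coset of a normal `r'`-subgroup are conjugate under it -/
theorem exists_conj_mem_of_coset {H : Type u} [Group H] [Finite H] {N : Subgroup H} [hN : N.Normal] {r : ℕ} (hr : r.Prime)
    (hrN : ¬ r ∣ Nat.card N) {p d : H} (hp : orderOf p = r) (hdo : orderOf d = r) (hd : d * p⁻¹ ∈ N) :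
    ∃ g ∈ N, g * d * g⁻¹ = p := by
  have : Fact r.Prime := ⟨hr⟩
  let q : H →* H ⧸ N := QuotientGroup.mk' N
  have hqs : Function.Surjective q := QuotientGroup.mk'_surjective N
  have hq1 : ∀ x, q x = 1 ↔ x ∈ N := fun x => QuotientGroup.eq_one_iff x
  have hdp : q d = q p := by
    have h1 : q (d * p⁻¹) = 1 := (hq1 _).2 hd
    rw [map_mul, map_inv] at h1
    exact mul_inv_eq_one.1 h1
  have hqp : orderOf (q p) = r := by
    have h1 : orderOf (q p) ∣ r := by rw [← hp]; exact orderOf_map_dvd q p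
    rcases (Nat.dvd_prime hr).1 h1 with h2 | h2
    · exfalso
      have h3 : p ∈ N := (hq1 _).1 (orderOf_eq_one_iff.1 h2)
      apply hrN
      have h4 : orderOf (⟨p, h3⟩ : N) ∣ Nat.card N := orderOf_dvd_natCard _
      rwa [Subgroup.orderOf_mk, hp] at h4
    · exact h2
  let P : Subgroup H := (Subgroup.zpowers (q p)).comap q
  have hpP : p ∈ P := Subgroup.mem_zpowers (q p)
  have hdP : d ∈ P := by
    show q d ∈ Subgroup.zpowers (q p)
    rw [hdp]
    exact Subgroup.mem_zpowers (q p)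
  have hcard : Nat.card P = r * Nat.card N := by
    have h1 : P.index = (Subgroup.zpowers (q p)).index := Subgroup.index_comap_of_surjective _ hqs
    have h2 : Nat.card P * P.index = Nat.card H := Subgroup.card_mul_index P
    have h3 : Nat.card (Subgroup.zpowers (q p)) * (Subgroup.zpowers (q p)).index = Nat.card (H ⧸ N) :=
      Subgroup.card_mul_index _
    rw [Nat.card_zpowers, hqp] at h3
    have h4 := Subgroup.card_eq_card_quotient_mul_card_subgroup N
    have h5 : 0 < P.index := Nat.pos_of_ne_zero Subgroup.index_ne_zero_of_finite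
    apply Nat.eq_of_mul_eq_mul_right h5
    rw [h2, h4, ← h3, h1]
    ring
  have hsyl : ∀ x : P, orderOf (x : H) = r → ∃ S : Sylow r P, (S : Subgroup P) = Subgroup.zpowers x := by
    intro x hx
    have h1 : Nat.card (Subgroup.zpowers x) = r := by
      rw [Nat.card_zpowers, ← Subgroup.orderOf_coe, hx]
    have h2 : IsPGroup r (Subgroup.zpowers x) := IsPGroup.of_card (n := 1) (by rw [h1, pow_one])
    have h3 : ¬ r ∣ (Subgroup.zpowers x).index := by
      have h4 := Subgroup.card_mul_index (Subgroup.zpowers x)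
      rw [h1, hcard] at h4
      have h5 : (Subgroup.zpowers x).index = Nat.card N := Nat.eq_of_mul_eq_mul_left hr.pos h4
      rw [h5]; exact hrN
    exact ⟨h2.toSylow h3, rfl⟩
  obtain ⟨S, hS⟩ := hsyl ⟨p, hpP⟩ hp
  obtain ⟨T, hT⟩ := hsyl ⟨d, hdP⟩ hdo
  obtain ⟨g, hg⟩ := MulAction.exists_smul_eq P T S
  have h6 : (g * ⟨d, hdP⟩ * g⁻¹ : P) ∈ (S : Subgroup P) := by
    rw [← hg]
    have h7 : g * ⟨d, hdP⟩ * g⁻¹ = (MulAut.conj g) • (⟨d, hdP⟩ : P) := rfl
    rw [h7]
    apply Subgroup.smul_mem_pointwise_smul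
    rw [hT]
    exact Subgroup.mem_zpowers _
  rw [hS] at h6
  obtain ⟨j, hj⟩ := Subgroup.mem_zpowers_iff.1 h6
  have hj' : p ^ j = (g : H) * d * (g : H)⁻¹ := by
    have := congrArg Subtype.val hj
    simpa using this
  obtain ⟨i, hi⟩ := Subgroup.mem_zpowers_iff.1 (show q (g : H) ∈ Subgroup.zpowers (q p) from g.2)
  refine ⟨p ^ (-i) * g, ?_, ?_⟩
  · rw [← hq1, map_mul, map_zpow, ← hi, ← zpow_add, neg_add_cancel, zpow_zero]
  · have e1 : p ^ (-i) * (g : H) * d * (p ^ (-i) * (g : H))⁻¹ = p ^ j := by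
      calc p ^ (-i) * (g : H) * d * (p ^ (-i) * (g : H))⁻¹ = p ^ (-i) * ((g : H) * d * (g : H)⁻¹) * (p ^ (-i))⁻¹ := by group
        _ = p ^ j := by rw [← hj']; group
    rw [e1]
    have e2 : q p ^ j = q p := by
      have h8 : q (p ^ j) = q ((g : H) * d * (g : H)⁻¹) := by rw [hj']
      rw [map_zpow, map_mul, map_mul, map_inv, hdp, ← hi] at h8
      rw [h8]
      group
    have e3 : (r : ℤ) ∣ j - 1 := by
      rw [← hqp, orderOf_dvd_iff_zpow_eq_one, zpow_sub, zpow_one, e2, mul_inv_cancel]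
    have e4 : p ^ (j - 1) = 1 := by
      rw [← hp] at e3
      exact orderOf_dvd_iff_zpow_eq_one.1 e3
    calc p ^ j = p ^ (j - 1) * p := by group
      _ = p := by rw [e4, one_mul]

/-- **The computation in the dihedral group `⟨s, u⟩`.**  `w` inverts `x`, centralises or twists `s` and `u`. -/
theorem core {G : Type*} [Group G] {x w s u z : G} (hz : z * z = 1) (zc : ∀ g : G, g * z = z * g) (hs : s * s = 1)
    (hu : u * u = 1) (hsu : s * u = u * s * z) (sx : s * x = x * s) (ux : u * x = x * u) (hw : w * x * w⁻¹ = x⁻¹)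
    (hws : w * s * w⁻¹ = s ∨ w * s * w⁻¹ = s * z) (hwu : w * u * w⁻¹ = u ∨ w * u * w⁻¹ = u * z)
    (T : Subgroup G) (hwT : w ∈ T) (hsT : s ∈ T) (huT : u ∈ T)
    (h2 : ∀ v ∈ T, v * x * v⁻¹ = x⁻¹ → v * s * v⁻¹ = s → v * u * v⁻¹ = u → v * v = 1 ∨ v * v = z) :
    ∃ j : G, j * j = 1 ∧ j * x * j⁻¹ = x⁻¹ := by
  have hsi : s⁻¹ = s := inv_eq_of_mul_eq_one_left hs
  have hui : u⁻¹ = u := inv_eq_of_mul_eq_one_left hu
  have hus : u * s * u⁻¹ = s * z := by
    rw [hui]
    have : u * s * z * u = s * u * u := by rw [← hsu]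
    calc u * s * u = u * s * (z * z) * u := by rw [hz, mul_one]
      _ = (u * s * z) * (z * u) := by group
      _ = (s * u) * (u * z) := by rw [← hsu, zc u]
      _ = s * (u * u) * z := by group
      _ = s * z := by rw [hu, mul_one]
  have hsu' : s * u * s⁻¹ = u * z := by
    rw [hsi]
    calc s * u * s = u * s * z * s := by rw [hsu]
      _ = u * s * (z * s) := by group
      _ = u * s * (s * z) := by rw [zc s]
      _ = u * (s * s) * z := by group
      _ = u * z := by rw [hs, mul_one]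
  have cz : ∀ g : G, g * z * g⁻¹ = z := fun g => by rw [zc, mul_assoc, mul_inv_cancel, mul_one]
  -- first adjustment
  obtain ⟨w₁, a0, a1, a2, a3⟩ : ∃ v ∈ T, v * x * v⁻¹ = x⁻¹ ∧ v * s * v⁻¹ = s ∧
      (v * u * v⁻¹ = u ∨ v * u * v⁻¹ = u * z) := by
    rcases hws with e | e
    · exact ⟨w, hwT, hw, e, hwu⟩
    · refine ⟨u * w, T.mul_mem huT hwT, ?_, ?_, ?_⟩
      · calc u * w * x * (u * w)⁻¹ = u * (w * x * w⁻¹) * u⁻¹ := by group
          _ = (u * x * u⁻¹)⁻¹ := by rw [hw]; group
          _ = x⁻¹ := by rw [ux]; group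
      · calc u * w * s * (u * w)⁻¹ = u * (w * s * w⁻¹) * u⁻¹ := by group
          _ = (u * s * u⁻¹) * (u * z * u⁻¹) := by rw [e]; group
          _ = s := by rw [hus, cz, mul_assoc, hz, mul_one]
      · rcases hwu with e' | e'
        · left
          calc u * w * u * (u * w)⁻¹ = u * (w * u * w⁻¹) * u⁻¹ := by group
            _ = u := by rw [e']; group
        · right
          calc u * w * u * (u * w)⁻¹ = u * (w * u * w⁻¹) * u⁻¹ := by group
            _ = u * (u * z * u⁻¹) := by rw [e']; group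
            _ = u * z := by rw [cz]
  -- second adjustment
  obtain ⟨w₂, b0, b1, b2, b3⟩ : ∃ v ∈ T, v * x * v⁻¹ = x⁻¹ ∧ v * s * v⁻¹ = s ∧ v * u * v⁻¹ = u := by
    rcases a3 with e | e
    · exact ⟨w₁, a0, a1, a2, e⟩
    · refine ⟨s * w₁, T.mul_mem hsT a0, ?_, ?_, ?_⟩
      · calc s * w₁ * x * (s * w₁)⁻¹ = s * (w₁ * x * w₁⁻¹) * s⁻¹ := by group
          _ = (s * x * s⁻¹)⁻¹ := by rw [a1]; group
          _ = x⁻¹ := by rw [sx]; group
      · calc s * w₁ * s * (s * w₁)⁻¹ = s * (w₁ * s * w₁⁻¹) * s⁻¹ := by group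
          _ = s := by rw [a2]; group
      · calc s * w₁ * u * (s * w₁)⁻¹ = s * (w₁ * u * w₁⁻¹) * s⁻¹ := by group
          _ = (s * u * s⁻¹) * (s * z * s⁻¹) := by rw [e]; group
          _ = u := by rw [hsu', cz, mul_assoc, hz, mul_one]
  rcases h2 w₂ b0 b1 b2 b3 with e | e
  · exact ⟨w₂, e, b1⟩
  · -- `s u` has square `z`
    have c1 : w₂ * s = s * w₂ := by
      calc w₂ * s = (w₂ * s * w₂⁻¹) * w₂ := by group
        _ = s * w₂ := by rw [b2]
    have c2 : w₂ * u = u * w₂ := by
      calc w₂ * u = (w₂ * u * w₂⁻¹) * w₂ := by group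
        _ = u * w₂ := by rw [b3]
    have hsq : s * u * (s * u) = z := by
      calc s * u * (s * u) = (s * u * s⁻¹) * (s * s) * u := by group
        _ = u * z * u := by rw [hsu', hs, mul_one]
        _ = u * (z * u) := by group
        _ = u * u * z := by rw [← zc u]; group
        _ = z := by rw [hu, one_mul]
    refine ⟨w₂ * (s * u), ?_, ?_⟩
    · calc w₂ * (s * u) * (w₂ * (s * u)) = w₂ * (s * (u * w₂)) * (s * u) := by group
        _ = w₂ * ((s * w₂) * u) * (s * u) := by rw [← c2]; group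
        _ = w₂ * w₂ * (s * u * (s * u)) := by rw [← c1]; group
        _ = 1 := by rw [e, hsq, hz]
    · calc w₂ * (s * u) * x * (w₂ * (s * u))⁻¹ = w₂ * (s * (u * x) * u⁻¹ * s⁻¹) * w₂⁻¹ := by group
        _ = w₂ * ((s * x) * s⁻¹) * w₂⁻¹ := by rw [ux]; group
        _ = w₂ * x * w₂⁻¹ := by rw [sx]; group
        _ = x⁻¹ := b1

section

variable {K : Type u} [Group K] {Q : Subgroup K} {z : K} {L : Type*} [Group L] {π : CZ z →* L}

/-- a fixed vector of an element of odd order `p` lifts to a fixed element -/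
theorem lift_fix (h : Large Q z) {x : CZ z} {p : ℕ} (hodd : Odd p) (hx : orderOf x = p) {y : K}
    (e : (x : K) * y * (x : K)⁻¹ = y ∨ (x : K) * y * (x : K)⁻¹ = y * z) : (x : K) * y = y * x := by
  rcases e with e | e
  · calc (x : K) * y = (x * y * (x : K)⁻¹) * x := by group
      _ = y * x := by rw [e]
  · exfalso
    have hxz : (x : K) * z = z * x := Subgroup.mem_centralizer_singleton_iff.1 x.2
    have key : ∀ k : ℕ, (x : K) ^ k * y * ((x : K) ^ k)⁻¹ = y * z ^ k := by
      intro k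
      induction k with
      | zero => simp
      | succ k ih =>
        calc (x : K) ^ (k + 1) * y * ((x : K) ^ (k + 1))⁻¹ = x * (x ^ k * y * ((x : K) ^ k)⁻¹) * (x : K)⁻¹ := by
              rw [pow_succ']; group
          _ = (x * y * (x : K)⁻¹) * (x * z ^ k * (x : K)⁻¹) := by rw [ih]; group
          _ = y * z * z ^ k := by
              rw [e]
              have : (x : K) * z ^ k = z ^ k * x := (show Commute (x : K) z from hxz).pow_right k
              rw [this]; group
          _ = y * z ^ (k + 1) := by rw [mul_assoc, ← pow_succ']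
    have h1 := key p
    have h2 : (x : K) ^ p = 1 := by
      have := congrArg Subtype.val (pow_orderOf_eq_one x)
      rw [hx] at this
      simpa using this
    rw [h2] at h1
    obtain ⟨m, rfl⟩ := hodd
    have h3 : z ^ (2 * m + 1) = z := by rw [pow_succ, pow_mul, pow_two, h.z_sq, one_pow, one_mul]
    rw [h3] at h1
    simp at h1
    exact h.z_ne h1

/-- **non-degeneracy of `C_Q(x)`** -/
theorem exists_noncomm (h : Large Q z) {x : CZ z} {p : ℕ} (hodd : Odd p) (hx : orderOf x = p) {s : K} (hs : s ∈ Q)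
    (hs1 : s ≠ 1) (hsz : s ≠ z) (hxs : (x : K) * s = s * x) : ∃ u ∈ Q, (x : K) * u = u * x ∧ s * u = u * s * z := by
  have two : ∀ t : ZMod 2, t = 0 ∨ t = 1 := by decide
  obtain ⟨v, hv⟩ : ∃ v, h.b (h.pr ⟨s, hs⟩) v = 1 := by
    by_contra hcon
    push Not at hcon
    rcases h.pr_eq_zero.1 (h.b_nondeg fun w => (two _).resolve_right (hcon w)) with e | e
    · exact hs1 e
    · exact hsz e
  set α := h.act x with hα
  have hfix : α (h.pr ⟨s, hs⟩) = h.pr ⟨s, hs⟩ := act_fix h x (Or.inl (by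
    show (x : K) * s * (x : K)⁻¹ = s
    rw [hxs]; group))
  have hαp : α ^ p = 1 := by rw [hα, ← map_pow, ← hx, pow_orderOf_eq_one, map_one]
  have hpow : ∀ (i : ℕ) (w : h.V), h.b (h.pr ⟨s, hs⟩) ((α ^ i) w) = h.b (h.pr ⟨s, hs⟩) w := by
    intro i
    induction i with
    | zero => intro w; rfl
    | succ i ih =>
      intro w
      rw [pow_succ]
      refine (ih (α w)).trans ?_
      have := h.b_act x (h.pr ⟨s, hs⟩) w
      rw [← hα, hfix] at this
      exact this
  set N := ∑ i ∈ Finset.range p, (α ^ i) v with hN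
  have hNf : α N = N := by
    rw [hN, map_sum]
    have h1 : ∀ i, α ((α ^ i) v) = (α ^ (i + 1)) v := fun i => by rw [pow_succ']; rfl
    simp_rw [h1]
    have h2 := Finset.sum_range_succ (fun i => (α ^ i) v) p
    have h3 := Finset.sum_range_succ' (fun i => (α ^ i) v) p
    rw [h2, hαp] at h3
    have h4 : (1 : h.V ≃ₗ[ZMod 2] h.V) v = (α ^ 0) v := by rw [pow_zero]
    rw [h4] at h3
    exact (add_right_cancel h3).symm
  have hbN : h.b (h.pr ⟨s, hs⟩) N = 1 := by
    rw [hN, map_sum, Finset.sum_congr rfl fun i _ => hpow i v, Finset.sum_const, Finset.card_range, nsmul_eq_mul, hv,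
      mul_one]
    obtain ⟨m, rfl⟩ := hodd
    push_cast
    have : (2 : ZMod 2) = 0 := rfl
    rw [this, zero_mul, zero_add]
  obtain ⟨u, hu⟩ := h.pr_surjective N
  refine ⟨u, u.2, ?_, ?_⟩
  · refine lift_fix h hodd hx ?_
    have h1 : h.act x (h.pr u) = h.pr u := by rw [hu]; exact hNf
    rw [h.act_pr, h.pr_eq_pr] at h1
    exact h1
  · rw [← hu] at hbN
    exact (h.b_pr_one ⟨s, hs⟩ u).1 hbN

/-- `x` is inverted in `C(z)` modulo nothing, when it is real modulo `Q` -/
theorem exists_inverting [Finite K] (h : Large Q z) (hs : Function.Surjective π) (hk : ∀ c, π c = 1 ↔ (c : K) ∈ Q)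
    {p : ℕ} (hp : p.Prime) (hpQ : ¬ p ∣ Nat.card Q) {x : CZ z} (hx : orderOf x = p)
    (hreal : ∃ w : L, w * π x * w⁻¹ = (π x)⁻¹) : ∃ w : CZ z, w * x * w⁻¹ = x⁻¹ := by
  obtain ⟨w₀, hw₀⟩ := hreal
  obtain ⟨w₁, rfl⟩ := hs w₀
  have : (Q.subgroupOf (CZ z)).Normal := (es_of_large h).normal
  have hle : Q ≤ CZ z := fun y hy => Subgroup.mem_centralizer_singleton_iff.2 (h.comm_z y hy)
  have hcQ : Nat.card (Q.subgroupOf (CZ z)) = Nat.card Q :=
    Nat.card_congr (Subgroup.subgroupOfEquivOfLe hle).toEquiv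
  obtain ⟨q, -, hq⟩ := exists_conj_mem_of_coset (N := Q.subgroupOf (CZ z)) hp (by rw [hcQ]; exact hpQ)
    (p := x⁻¹) (d := w₁ * x * w₁⁻¹) (by rw [orderOf_inv, hx])
    (by rw [show w₁ * x * w₁⁻¹ = MulAut.conj w₁ x from rfl, MulEquiv.orderOf_eq, hx]) (by
      show ((w₁ * x * w₁⁻¹ * x⁻¹⁻¹ : CZ z) : K) ∈ Q
      rw [← hk, map_mul, map_mul, map_mul, map_inv, map_inv, map_inv, hw₀]
      simp)
  exact ⟨q * w₁, by rw [← hq]; group⟩

/-- **Strong reality in `C(z)`.** -/
theorem i2_of_order [Finite K] (h : Large Q z) (hs : Function.Surjective π) (hk : ∀ c, π c = 1 ↔ (c : K) ∈ Q)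
    {p : ℕ} (hp : p.Prime) (hp7 : 7 ≤ p) (hpQ : ¬ p ∣ Nat.card Q) {x : CZ z} (hx : orderOf x = p)
    (hC : ¬ 2 ∣ Nat.card (Subgroup.centralizer ({π x} : Set L))) (hreal : ∃ w : L, w * π x * w⁻¹ = (π x)⁻¹)
    (hU : Set.ncard {y : K | y ∈ Q ∧ (x : K) * y = y * x} = 8) {S : Set K} (hSQ : ∀ s ∈ S, s ∈ Q)
    (hS1 : ∀ s ∈ S, s ≠ 1 ∧ s ≠ z ∧ s * s = 1) (hSc : ∀ g : CZ z, ∀ s ∈ S, (g : K) * s * (g : K)⁻¹ ∈ S)
    (hSp : Nat.card S % p = 2) : I2 x := by
  have hodd : Odd p := hp.odd_of_ne_two (by omega)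
  set U : Set K := {y : K | y ∈ Q ∧ (x : K) * y = y * x} with hUdef
  have hUfin : U.Finite := Set.toFinite U
  have hzz : z * z = 1 := h.z_sq
  have czx : ∀ g : CZ z, (g : K) * z = z * g := fun g => Subgroup.mem_centralizer_singleton_iff.1 g.2
  have zU : z ∈ U := ⟨h.z_mem, czx x⟩
  have oU : (1 : K) ∈ U := ⟨Q.one_mem, by simp⟩
  have mulU : ∀ a ∈ U, ∀ b ∈ U, a * b ∈ U := by
    rintro a ⟨ha, ha'⟩ b ⟨hb, hb'⟩
    refine ⟨Q.mul_mem ha hb, ?_⟩
    rw [← mul_assoc, ha', mul_assoc, hb', mul_assoc]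
  -- the fixed points on `S`
  let act : MulAction (CZ z) S :=
    { smul := fun g s => ⟨(g : K) * s * (g : K)⁻¹, hSc g s s.2⟩
      one_smul := fun s => Subtype.ext (by show ((1 : CZ z) : K) * s * ((1 : CZ z) : K)⁻¹ = s; simp)
      mul_smul := fun g g' s => Subtype.ext (by
        show ((g * g' : CZ z) : K) * s * ((g * g' : CZ z) : K)⁻¹ = (g : K) * ((g' : K) * s * (g' : K)⁻¹) * (g : K)⁻¹
        rw [Subgroup.coe_mul]; group) }
  have : Fact p.Prime := ⟨hp⟩
  have hG : IsPGroup p (Subgroup.zpowers x) := by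
    refine IsPGroup.of_card (n := 1) ?_
    rw [Nat.card_zpowers, hx, pow_one]
  have hmod := hG.card_modEq_card_fixedPoints S
  have hfix : Nat.card (MulAction.fixedPoints (Subgroup.zpowers x) S) = Set.ncard (S ∩ U) := by
    rw [← Nat.card_coe_set_eq]
    refine Nat.card_congr
      { toFun := fun s => ⟨(s.1 : K), s.1.2, hSQ _ s.1.2, ?_⟩
        invFun := fun s => ⟨⟨s.1, s.2.1⟩, ?_⟩
        left_inv := fun s => rfl
        right_inv := fun s => rfl }
    · have h1 := congrArg Subtype.val (s.2 ⟨x, Subgroup.mem_zpowers x⟩)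
      have h2 : (x : K) * (s.1 : K) * (x : K)⁻¹ = s.1 := h1
      calc (x : K) * (s.1 : K) = ((x : K) * (s.1 : K) * (x : K)⁻¹) * x := by group
        _ = _ := by rw [h2]
    · rintro ⟨a, k, rfl⟩
      have h1 : x ∈ MulAction.stabilizer (CZ z) (⟨s.1, s.2.1⟩ : S) := by
        rw [MulAction.mem_stabilizer_iff]
        apply Subtype.ext
        show (x : K) * s.1 * (x : K)⁻¹ = s.1
        rw [s.2.2.2]; group
      exact zpow_mem h1 k
  rw [hfix] at hmod
  have hle6 : Set.ncard (S ∩ U) ≤ 6 := by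
    have h1 : S ∩ U ⊆ U \ {1, z} := by
      rintro y ⟨hy, hyU⟩
      refine ⟨hyU, ?_⟩
      rintro (e | e)
      · exact (hS1 y hy).1 e
      · exact (hS1 y hy).2.1 e
    have h2 : Set.ncard (U \ {1, z}) = 6 := by
      rw [Set.ncard_sdiff (by rintro y (rfl | rfl); exacts [oU, zU]) (Set.toFinite _), hU,
        Set.ncard_pair (fun e => h.z_ne e.symm)]
    rw [← h2]
    exact Set.ncard_le_ncard h1 (Set.toFinite _)
  have h2 : Set.ncard (S ∩ U) = 2 := by
    have h3 : Set.ncard (S ∩ U) % p = 2 := by rw [← hSp]; exact hmod.symm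
    rwa [Nat.mod_eq_of_lt (by omega)] at h3
  obtain ⟨s, hsS, hsU⟩ : (S ∩ U).Nonempty := by
    rw [Set.nonempty_iff_ne_empty]
    intro e
    rw [e, Set.ncard_empty] at h2
    omega
  obtain ⟨hs1, hsz, hss⟩ := hS1 s hsS
  have hsQ : s ∈ Q := hsU.1
  have hsi : s⁻¹ = s := inv_eq_of_mul_eq_one_left hss
  have cz : ∀ g ∈ Q, g * z = z * g := h.comm_z
  obtain ⟨u₀, hu₀Q, hxu₀, hsu₀⟩ := exists_noncomm h hodd hx hsQ hs1 hsz hsU.2
  -- an involution `u`
  obtain ⟨u, huU, huu, hsu⟩ : ∃ u ∈ U, u * u = 1 ∧ s * u = u * s * z := by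
    rcases h.sq u₀ hu₀Q with e | e
    · exact ⟨u₀, ⟨hu₀Q, hxu₀⟩, e, hsu₀⟩
    · refine ⟨u₀ * s, mulU _ ⟨hu₀Q, hxu₀⟩ _ hsU, ?_, ?_⟩
      · calc u₀ * s * (u₀ * s) = u₀ * (s * u₀) * s := by group
          _ = u₀ * u₀ * s * (z * s) := by rw [hsu₀]; group
          _ = u₀ * u₀ * (s * s) * z := by rw [← cz s hsQ]; group
          _ = 1 := by rw [e, hss, mul_one, hzz]
      · calc s * (u₀ * s) = (s * u₀) * s := by group
          _ = u₀ * s * (z * s) := by rw [hsu₀]; group
          _ = u₀ * s * s * z := by rw [← cz s hsQ]; group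
  have huQ : u ∈ Q := huU.1
  have hui : u⁻¹ = u := inv_eq_of_mul_eq_one_left huu
  have hsu_ne : s * u ≠ u * s := by
    intro e
    rw [e] at hsu
    exact h.z_ne (by simpa using hsu.symm)
  -- the centralizer of `s` in `U`
  have hD : ∀ y ∈ U, s * y = y * s → y = 1 ∨ y = z ∨ y = s ∨ y = s * z := by
    set D : Set K := {y | y ∈ U ∧ s * y = y * s} with hDdef
    have hDU : D ⊆ U := fun y hy => hy.1
    have h3 : 2 * Set.ncard D ≤ 8 := by
      have h4 : (fun y => u * y) '' D ⊆ U \ D := by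
        rintro _ ⟨y, ⟨hyU, hys⟩, rfl⟩
        refine ⟨mulU _ huU _ hyU, fun hh => hsu_ne ?_⟩
        have h5 : s * (u * y) = u * y * s := hh.2
        have h6 : s * u * y = u * s * y := by rw [mul_assoc, h5, mul_assoc, ← hys, mul_assoc]
        exact mul_right_cancel h6
      have h5 := Set.ncard_le_ncard h4 (Set.toFinite _)
      rw [Set.ncard_image_of_injective _ (mul_right_injective u), Set.ncard_sdiff hDU (Set.toFinite _), hU] at h5
      have h6 := Set.ncard_le_ncard hDU hUfin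
      rw [hU] at h6
      omega
    have h4 : ({1, z, s, s * z} : Set K) ⊆ D := by
      rintro y (rfl | rfl | rfl | rfl)
      · exact ⟨oU, by simp⟩
      · exact ⟨zU, cz s hsQ⟩
      · exact ⟨hsU, rfl⟩
      · exact ⟨mulU _ hsU _ zU, by rw [← mul_assoc, mul_assoc s z s, ← cz s hsQ, ← mul_assoc]⟩
    have h5 : Set.ncard ({1, z, s, s * z} : Set K) = 4 := by
      have hzs : z ≠ s * z := fun e => hs1 (by simpa using e.symm)
      have hssz : s ≠ s * z := fun e => h.z_ne (by simpa using e.symm)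
      have h1sz : (1 : K) ≠ s * z := by
        intro e
        apply hsz
        have : s⁻¹ = z := by rw [inv_eq_iff_mul_eq_one, ← e]
        rw [hsi] at this
        exact this
      rw [Set.ncard_insert_of_notMem, Set.ncard_insert_of_notMem, Set.ncard_pair hssz]
      · rintro (e | e)
        · exact hsz e.symm
        · exact hzs e
      · rintro (e | e | e)
        · exact h.z_ne e.symm
        · exact hs1 e.symm
        · exact h1sz e
    have h6 : ({1, z, s, s * z} : Set K) = D := by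
      apply Set.eq_of_subset_of_ncard_le h4
      rw [h5]; omega
    intro y hy hsy
    have h7 : y ∈ D := ⟨hy, hsy⟩
    rw [← h6] at h7
    exact h7
  -- the pair `s, s z`
  have hszS : s * z ∈ S ∩ U := by
    refine ⟨?_, mulU _ hsU _ zU⟩
    have h3 := hSc ⟨u, Subgroup.mem_centralizer_singleton_iff.2 (cz u huQ)⟩ s hsS
    have h4 : u * s * u⁻¹ = s * z := by
      rw [hui]
      calc u * s * u = u * s * (z * z) * u := by rw [hzz, mul_one]
        _ = (u * s * z) * (z * u) := by group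
        _ = s * u * (u * z) := by rw [← hsu, ← cz u huQ]
        _ = s * (u * u) * z := by group
        _ = s * z := by rw [huu, mul_one]
    rwa [show ((⟨u, _⟩ : CZ z) : K) = u from rfl, h4] at h3
  have hpair : ∀ y ∈ S ∩ U, y = s ∨ y = s * z := by
    have h3 : ({s, s * z} : Set K) = S ∩ U := by
      apply Set.eq_of_subset_of_ncard_le
      · rintro y (rfl | rfl)
        · exact ⟨hsS, hsU⟩
        · exact hszS
      · rw [h2, Set.ncard_pair (fun e => h.z_ne (by simpa using e.symm))]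
      · exact Set.toFinite _
    intro y hy
    rw [← h3] at hy
    exact hy
  -- an inverting 2-element
  have f2 : Fact (Nat.Prime 2) := ⟨Nat.prime_two⟩
  obtain ⟨w, hw, hw2⟩ : ∃ w : CZ z, w * x * w⁻¹ = x⁻¹ ∧ IsPGroup 2 (Subgroup.zpowers w) := by
    obtain ⟨w, hw⟩ := exists_inverting h hs hk hp hpQ hx hreal
    obtain ⟨k, m, hm, hkm⟩ := Nat.exists_eq_two_pow_mul_odd (orderOf_pos w).ne'
    have key : ∀ n : ℕ, w ^ (2 * n) * x * (w ^ (2 * n))⁻¹ = x := by
      intro n
      have h3 : Commute (w ^ 2) x := by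
        show w ^ 2 * x = x * w ^ 2
        calc w ^ 2 * x = w * (w * x * w⁻¹) * w := by rw [pow_two]; group
          _ = w * x⁻¹ * w := by rw [hw]
          _ = (w * x * w⁻¹)⁻¹ * (w * w) := by group
          _ = x * w ^ 2 := by rw [hw, inv_inv, pow_two]
      rw [pow_mul, (h3.pow_left n).eq, mul_inv_cancel_right]
    refine ⟨w ^ m, ?_, ?_⟩
    · obtain ⟨n, rfl⟩ := hm
      rw [pow_succ']
      calc w * w ^ (2 * n) * x * (w * w ^ (2 * n))⁻¹ = w * (w ^ (2 * n) * x * (w ^ (2 * n))⁻¹) * w⁻¹ := by group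
        _ = x⁻¹ := by rw [key, hw]
    · refine IsPGroup.of_card (n := k) ?_
      have hm0 : m ≠ 0 := by rintro rfl; exact absurd hm (by decide)
      rw [Nat.card_zpowers, orderOf_pow_of_dvd hm0 ⟨2 ^ k, by rw [hkm]; ring⟩, hkm,
        Nat.mul_div_cancel _ (Nat.pos_of_ne_zero hm0)]
  have hwK : (w : K) * x * (w : K)⁻¹ = (x : K)⁻¹ := by
    have := congrArg Subtype.val hw
    simpa using this
  -- elements of `C(z)` inverting `x` normalise `U`
  have hnU : ∀ v : CZ z, (v : K) * x * (v : K)⁻¹ = (x : K)⁻¹ → ∀ y ∈ U, (v : K) * y * (v : K)⁻¹ ∈ U := by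
    intro v hv y hy
    refine ⟨h.conj_mem v (czx v) y hy.1, ?_⟩
    have h3 : (x : K)⁻¹ * ((v : K) * y * (v : K)⁻¹) = (v : K) * y * (v : K)⁻¹ * (x : K)⁻¹ := by
      rw [← hv]
      calc (v : K) * x * (v : K)⁻¹ * ((v : K) * y * (v : K)⁻¹) = v * (x * y) * (v : K)⁻¹ := by group
        _ = v * (y * x) * (v : K)⁻¹ := by rw [hy.2]
        _ = _ := by group
    calc (x : K) * ((v : K) * y * (v : K)⁻¹) = x * ((v : K) * y * (v : K)⁻¹ * (x : K)⁻¹) * x := by group
      _ = x * ((x : K)⁻¹ * ((v : K) * y * (v : K)⁻¹)) * x := by rw [h3]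
      _ = _ := by group
  have hws : (w : K) * s * (w : K)⁻¹ = s ∨ (w : K) * s * (w : K)⁻¹ = s * z :=
    hpair _ ⟨hSc w s hsS, hnU w hwK s hsU⟩
  have hwu : (w : K) * u * (w : K)⁻¹ = u ∨ (w : K) * u * (w : K)⁻¹ = u * z := by
    set u' := (w : K) * u * (w : K)⁻¹ with hu'
    have hu'U : u' ∈ U := hnU w hwK u huU
    have hu'2 : u' * u' = 1 := by
      calc u' * u' = w * (u * u) * (w : K)⁻¹ := by rw [hu']; group
        _ = 1 := by rw [huu]; group
    have hsu' : s * u' = u' * s * z := by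
      have e1 : ((w : K) * s * (w : K)⁻¹) * u' = u' * ((w : K) * s * (w : K)⁻¹) * z := by
        calc ((w : K) * s * (w : K)⁻¹) * u' = w * (s * u) * (w : K)⁻¹ := by rw [hu']; group
          _ = w * (u * s * z) * (w : K)⁻¹ := by rw [hsu]
          _ = w * u * s * (z * (w : K)⁻¹) := by group
          _ = w * u * s * ((w : K)⁻¹ * z) := by
              have : z * (w : K)⁻¹ = (w : K)⁻¹ * z := by
                have := czx w⁻¹
                rw [Subgroup.coe_inv] at this
                exact this.symm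
              rw [this]
          _ = u' * ((w : K) * s * (w : K)⁻¹) * z := by rw [hu']; group
      rcases hws with e | e
      · rwa [e] at e1
      · rw [e] at e1
        have e2 : s * u' * z = u' * s * z * z := by
          calc s * u' * z = s * z * u' := by rw [mul_assoc, cz u' hu'U.1, ← mul_assoc]
            _ = u' * (s * z) * z := e1
            _ = u' * s * z * z := by group
        exact mul_right_cancel e2
    -- `u' u` commutes with `s`
    have h3 : s * (u' * u) = u' * u * s := by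
      calc s * (u' * u) = (s * u') * u := by group
        _ = u' * s * (z * u) := by rw [hsu']; group
        _ = u' * (s * u) * z := by rw [← cz u huQ]; group
        _ = u' * u * s * (z * z) := by rw [hsu]; group
        _ = u' * u * s := by rw [hzz, mul_one]
    have h4 : u' = u' * u * u := by rw [mul_assoc, huu, mul_one]
    have hsuq : s * u * (s * u) = z := by
      calc s * u * (s * u) = (s * u) * s * u := by group
        _ = u * s * (z * s) * u := by rw [hsu]; group
        _ = u * (s * s) * (z * u) := by rw [← cz s hsQ]; group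
        _ = (u * u) * z := by rw [hss, mul_one, ← cz u huQ]; group
        _ = z := by rw [huu, one_mul]
    rcases hD _ (mulU _ hu'U _ huU) h3 with e | e | e | e
    · left; rw [h4, e, one_mul]
    · right; rw [h4, e, ← cz u huQ]
    · exfalso
      rw [e] at h4
      rw [h4, hsuq] at hu'2
      exact h.z_ne hu'2
    · exfalso
      rw [e] at h4
      have h5 : s * z * u = s * u * z := by rw [mul_assoc, ← cz u huQ, ← mul_assoc]
      rw [h5] at h4
      rw [h4] at hu'2
      have h6 : s * u * z * (s * u * z) = (s * u * (s * u)) * (z * z) := by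
        have : z * (s * u * z) = s * u * z * z := by
          rw [← cz (s * u * z) (Q.mul_mem (Q.mul_mem hsQ huQ) h.z_mem)]
        calc s * u * z * (s * u * z) = s * u * (z * (s * u * z)) := by group
          _ = _ := by rw [this]; group
      rw [h6, hsuq, hzz, mul_one] at hu'2
      exact h.z_ne hu'2
  -- the 2-group `T`
  let UC : Subgroup (CZ z) := (Q.subgroupOf (CZ z)) ⊓ Subgroup.centralizer ({x} : Set (CZ z))
  have hUC : ∀ y : CZ z, y ∈ UC ↔ (y : K) ∈ U := by
    intro y
    constructor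
    · rintro ⟨h3, h4⟩
      exact ⟨h3, (congrArg Subtype.val (Subgroup.mem_centralizer_singleton_iff.1 h4)).symm⟩
    · rintro ⟨h3, h4⟩
      exact ⟨h3, Subgroup.mem_centralizer_singleton_iff.2 (Subtype.ext h4.symm)⟩
  have hUC2 : IsPGroup 2 UC := by
    rintro ⟨y, hy⟩
    refine ⟨2, Subtype.ext (Subtype.ext ?_)⟩
    have h3 : (y : K) ∈ Q := hy.1
    show (y : K) ^ 2 ^ 2 = 1
    rw [show (2 : ℕ) ^ 2 = 2 * 2 from rfl, pow_mul, pow_two, pow_two]
    rcases h.sq _ h3 with e | e
    · rw [e]; simp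
    · rw [e, hzz]
  have hnorm : Subgroup.zpowers w ≤ Subgroup.normalizer (UC : Set (CZ z)) := by
    rw [Subgroup.zpowers_le]
    have h3 : ∀ y ∈ UC, w * y * w⁻¹ ∈ UC := fun y hy => (hUC _).2 (hnU w hwK y ((hUC y).1 hy))
    have hwi : ((w⁻¹ : CZ z) : K) * x * ((w⁻¹ : CZ z) : K)⁻¹ = (x : K)⁻¹ := by
      have e1 : w⁻¹ * x * w⁻¹⁻¹ = x⁻¹ := by
        calc w⁻¹ * x * w⁻¹⁻¹ = w⁻¹ * (x⁻¹)⁻¹ * w := by group
          _ = w⁻¹ * (w * x * w⁻¹)⁻¹ * w := by rw [hw]
          _ = x⁻¹ := by group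
      have := congrArg Subtype.val e1
      simpa using this
    have h4 : ∀ y ∈ UC, w⁻¹ * y * w⁻¹⁻¹ ∈ UC := fun y hy => (hUC _).2 (hnU w⁻¹ hwi y ((hUC y).1 hy))
    rw [Subgroup.mem_normalizer_iff]
    intro y
    refine ⟨h3 y, fun hy => ?_⟩
    have := h4 _ hy
    rwa [show w⁻¹ * (w * y * w⁻¹) * w⁻¹⁻¹ = y by group] at this
  set T : Subgroup (CZ z) := Subgroup.zpowers w ⊔ UC with hT
  have hT2 : IsPGroup 2 T := IsPGroup.to_sup_of_normal_right' hw2 hUC2 hnorm
  -- the square of an inverting element of `T` centralising `s` and `u`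
  have hv2 : ∀ v ∈ T, (v : K) * x * (v : K)⁻¹ = (x : K)⁻¹ → (v : K) * s * (v : K)⁻¹ = s →
      (v : K) * u * (v : K)⁻¹ = u → (v : K) * v = 1 ∨ (v : K) * v = z := by
    intro v hvT hvx hvs hvu
    have hvx' : v * x * v⁻¹ = x⁻¹ := Subtype.ext (by simpa using hvx)
    have hvvx : v * v * x = x * (v * v) := by
      calc v * v * x = v * (v * x * v⁻¹) * v := by group
        _ = v * x⁻¹ * v := by rw [hvx']
        _ = (v * x * v⁻¹)⁻¹ * (v * v) := by group
        _ = x * (v * v) := by rw [hvx', inv_inv]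
    have h1v : π (v * v) = 1 := by
      have h3 : π (v * v) ∈ Subgroup.centralizer ({π x} : Set L) :=
        Subgroup.mem_centralizer_singleton_iff.2 (by rw [← map_mul, hvvx, map_mul])
      obtain ⟨k, hk'⟩ := hT2 ⟨v * v, T.mul_mem hvT hvT⟩
      have h4 : (v * v) ^ 2 ^ k = 1 := congrArg Subtype.val hk'
      have h5 : orderOf (π (v * v)) ∣ 2 ^ k := by
        rw [orderOf_dvd_iff_pow_eq_one, ← map_pow, h4, map_one]
      have h6 : orderOf (π (v * v)) ∣ Nat.card (Subgroup.centralizer ({π x} : Set L)) := by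
        have := orderOf_dvd_natCard (⟨π (v * v), h3⟩ : Subgroup.centralizer ({π x} : Set L))
        rwa [Subgroup.orderOf_mk] at this
      obtain ⟨j, -, hj⟩ := (Nat.dvd_prime_pow Nat.prime_two).1 h5
      rcases Nat.eq_zero_or_pos j with h7 | h7
      · rw [h7, pow_zero] at hj
        exact orderOf_eq_one_iff.1 hj
      · exfalso
        apply hC
        exact (dvd_pow_self 2 h7.ne').trans (by rw [← hj]; exact h6)
    have e1 : ((v * v : CZ z) : K) ∈ Q := (hk _).1 h1v
    have hvQ : (v : K) * v ∈ Q := e1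
    have hvU : (v : K) * v ∈ U := by
      refine ⟨hvQ, ?_⟩
      have := congrArg Subtype.val hvvx
      exact this.symm
    have hcs : (v : K) * s = s * v := by
      calc (v : K) * s = (v * s * (v : K)⁻¹) * v := by group
        _ = s * v := by rw [hvs]
    have hcu : (v : K) * u = u * v := by
      calc (v : K) * u = (v * u * (v : K)⁻¹) * v := by group
        _ = u * v := by rw [hvu]
    have hcs2 : s * ((v : K) * v) = (v : K) * v * s := by
      rw [← mul_assoc, ← hcs, mul_assoc, ← hcs, ← mul_assoc]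
    have hcu2 : (v : K) * v * u = u * ((v : K) * v) := by
      rw [mul_assoc, hcu, ← mul_assoc, hcu, mul_assoc]
    rcases hD _ hvU hcs2 with e | e | e | e
    · exact Or.inl e
    · exact Or.inr e
    · exfalso
      rw [e] at hcu2
      exact hsu_ne hcu2
    · exfalso
      rw [e] at hcu2
      apply hsu_ne
      have h3 : s * u * z = u * s * z := by
        calc s * u * z = s * z * u := by rw [mul_assoc, cz u huQ, ← mul_assoc]
          _ = u * (s * z) := hcu2
          _ = u * s * z := by group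
      exact mul_right_cancel h3
  -- apply `core` in `C(z)`
  let s' : CZ z := ⟨s, Subgroup.mem_centralizer_singleton_iff.2 (cz s hsQ)⟩
  let u' : CZ z := ⟨u, Subgroup.mem_centralizer_singleton_iff.2 (cz u huQ)⟩
  obtain ⟨j, hj1, hj2⟩ := core (G := CZ z) (x := x) (w := w) (s := s') (u := u') (z := zC z) (Subtype.ext hzz)
    (fun g => Subtype.ext (czx g)) (Subtype.ext hss) (Subtype.ext huu) (Subtype.ext hsu)
    (Subtype.ext hsU.2.symm) (Subtype.ext huU.2.symm) hw
    (hws.imp (fun e => Subtype.ext e) (fun e => Subtype.ext e))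
    (hwu.imp (fun e => Subtype.ext e) (fun e => Subtype.ext e))
    T ((le_sup_left : Subgroup.zpowers w ≤ T) (Subgroup.mem_zpowers w))
    ((le_sup_right : UC ≤ T) ((hUC s').2 hsU)) ((le_sup_right : UC ≤ T) ((hUC u').2 huU))
    (fun v hv h1 h2 h3 => by
      have h1' : (v : K) * x * (v : K)⁻¹ = (x : K)⁻¹ := by
        have := congrArg Subtype.val h1
        simpa using this
      exact (hv2 v hv h1' (congrArg Subtype.val h2) (congrArg Subtype.val h3)).imp
        (fun e => Subtype.ext e) (fun e => Subtype.ext e))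
  exact I2.of_inv hj1 hj2

end

end Cfsg.Agent.H569.Inv
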