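import Cfsg.Agent.H529.Inv.Pair

/-!
# S4171 (and S2443): the counting lemma for weighted families of classes (helper569)

Families `x i`, `y j` with weights `a i`, `b j ∈ ℕ`, `α χ = ∑ a i χ (x i)`, `β χ = ∑ b j χ (y j)`, `A = ∑ a i`, `B = ∑ b j`.

* `prd_of_sum` : `∑_{χ ≠ 1} ‖α χ‖ ‖β χ‖ ‖χ g‖ / χ(1) < A B` gives `Prd (x i) (y j) g` for some `i`, `j`;
* `prd_sum` : the same from `∑ ‖α χ‖² ≤ S`, `‖β χ‖² ≤ m`, `d ≤ χ(1)` for all `χ ≠ 1` with `α χ ≠ 0 ≠ β χ`, and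
  `(m S - (A B)²) (c - 1) < (A B d)²`, `|C(g)| ≤ c`;
* `i4_sum` : products of four involutions;
* `sum_al` : `∑ ‖α χ‖² = ∑ (a i)² |C(x i)|` if the `x i` are pairwise not conjugate.
-/

set_option autoImplicit false

namespace Cfsg.Agent.H569.Inv.Sum

open Cfsg Subgroup
open Cfsg.Agent.Characters Cfsg.Agent.Characters.Core
open Cfsg.Agent.H65.Ore (Prd one1)
open Cfsg.Agent.H854.Ore (SR)
open Cfsg.Agent.H777.Ore (I4)
open scoped ComplexConjugate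

universe u

variable {G : Type u} [Group G] {ι κ : Type*} [Fintype ι] [Fintype κ]

/-- the weighted sum -/
noncomputable def al (a : ι → ℕ) (x : ι → G) (χ : G → ℂ) : ℂ := ∑ i, (a i : ℂ) * χ (x i)

theorem al_one (a : ι → ℕ) (x : ι → G) : al a x (one1 G : G → ℂ) = ((∑ i, a i : ℕ) : ℂ) := by
  rw [al, Nat.cast_sum]
  exact Finset.sum_congr rfl fun i _ => by rw [H65.Ore.one1_apply, mul_one]

variable [Finite G]

theorem prd_of_sum [Fintype (IrrCharacter G)] [DecidableEq (IrrCharacter G)] {a : ι → ℕ} {b : κ → ℕ} {x : ι → G}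
    {y : κ → G} {g : G}
    (h : ∑ χ ∈ Finset.univ.erase (one1 G), ‖al a x (χ : G → ℂ)‖ * ‖al b y (χ : G → ℂ)‖ * ‖(χ : G → ℂ) g‖ /
      ‖(χ : G → ℂ) 1‖ < ((∑ i, a i : ℕ) : ℝ) * ((∑ j, b j : ℕ) : ℝ)) : ∃ i j, Prd (x i) (y j) g := by
  by_contra hno
  push Not at hno
  have h0 : ∀ i j, ∑ χ : IrrCharacter G, (χ : G → ℂ) (x i) * (χ : G → ℂ) (y j) * conj ((χ : G → ℂ) g) /
      (χ : G → ℂ) 1 = 0 := by
    intro i j
    by_contra h1
    exact hno i j (H65.Ore.prd_of_ne_zero h1)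
  have h1 : ∑ χ : IrrCharacter G, al a x (χ : G → ℂ) * al b y (χ : G → ℂ) * conj ((χ : G → ℂ) g) /
      (χ : G → ℂ) 1 = 0 := by
    have h2 : ∀ χ : IrrCharacter G, al a x (χ : G → ℂ) * al b y (χ : G → ℂ) * conj ((χ : G → ℂ) g) /
        (χ : G → ℂ) 1 = ∑ i, ∑ j, (a i : ℂ) * (b j : ℂ) * ((χ : G → ℂ) (x i) * (χ : G → ℂ) (y j) *
          conj ((χ : G → ℂ) g) / (χ : G → ℂ) 1) := by
      intro χ
      rw [al, al, Finset.sum_mul_sum, Finset.sum_mul, Finset.sum_div]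
      refine Finset.sum_congr rfl fun i _ => ?_
      rw [Finset.sum_mul, Finset.sum_div]
      exact Finset.sum_congr rfl fun j _ => by ring
    simp only [h2]
    rw [Finset.sum_comm]
    refine Finset.sum_eq_zero fun i _ => ?_
    rw [Finset.sum_comm]
    refine Finset.sum_eq_zero fun j _ => ?_
    rw [← Finset.mul_sum, h0, mul_zero]
  rw [← Finset.add_sum_erase Finset.univ _ (Finset.mem_univ (one1 G)), al_one, al_one, H65.Ore.one1_apply,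
    H65.Ore.one1_apply, map_one, mul_one, div_one] at h1
  have h2 := norm_sum_le (Finset.univ.erase (one1 G)) (fun χ : IrrCharacter G =>
    al a x (χ : G → ℂ) * al b y (χ : G → ℂ) * conj ((χ : G → ℂ) g) / (χ : G → ℂ) 1)
  rw [show ∑ χ ∈ Finset.univ.erase (one1 G), al a x (χ : G → ℂ) * al b y (χ : G → ℂ) * conj ((χ : G → ℂ) g) /
      (χ : G → ℂ) 1 = -(((∑ i, a i : ℕ) : ℂ) * ((∑ j, b j : ℕ) : ℂ)) by linear_combination h1, norm_neg, norm_mul,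
    Complex.norm_natCast, Complex.norm_natCast] at h2
  have h3 : ∀ χ : IrrCharacter G, ‖al a x (χ : G → ℂ) * al b y (χ : G → ℂ) * conj ((χ : G → ℂ) g) / (χ : G → ℂ) 1‖ =
      ‖al a x (χ : G → ℂ)‖ * ‖al b y (χ : G → ℂ)‖ * ‖(χ : G → ℂ) g‖ / ‖(χ : G → ℂ) 1‖ := by
    intro χ
    rw [norm_div, norm_mul, norm_mul, Complex.norm_conj]
  simp only [h3] at h2
  linarith

/-- **The counting lemma.** -/
theorem prd_sum [Fintype (IrrCharacter G)] {a : ι → ℕ} {b : κ → ℕ} {x : ι → G} {y : κ → G} {A B S m c d : ℕ}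
    (hA : ∑ i, a i = A) (hB : ∑ j, b j = B) (hA0 : 0 < A) (hB0 : 0 < B)
    (hα : ∑ χ : IrrCharacter G, ‖al a x (χ : G → ℂ)‖ ^ 2 ≤ (S : ℝ))
    (hβ : ∀ χ : IrrCharacter G, ‖al b y (χ : G → ℂ)‖ ^ 2 ≤ (m : ℝ))
    (hd : ∀ χ : IrrCharacter G, (χ : G → ℂ) ≠ 1 → al a x (χ : G → ℂ) ≠ 0 → al b y (χ : G → ℂ) ≠ 0 →
      d ≤ charDegree (χ : G → ℂ))
    {g : G} (hg : Nat.card (centralizer ({g} : Set G)) ≤ c)
    (hnum : (m * S - (A * B) ^ 2) * (c - 1) < (A * B * d) ^ 2) : ∃ i j, Prd (x i) (y j) g := by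
  classical
  apply prd_of_sum (a := a) (b := b)
  rw [hA, hB]
  have hd0 : (0 : ℝ) < d := by
    rcases Nat.eq_zero_or_pos d with h | h
    · rw [h] at hnum; simp at hnum
    · exact_mod_cast h
  have hAR : (0 : ℝ) < A := by exact_mod_cast hA0
  have hBR : (0 : ℝ) < B := by exact_mod_cast hB0
  have hcg : 1 ≤ Nat.card (centralizer ({g} : Set G)) := Nat.card_pos
  set F := Finset.univ.erase (one1 G) with hF
  -- the sum of the squares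
  have e1 : al a x (one1 G : G → ℂ) = (A : ℂ) := by rw [al_one, hA]
  have e2 : al b y (one1 G : G → ℂ) = (B : ℂ) := by rw [al_one, hB]
  have h1 : ∑ χ : IrrCharacter G, (‖al a x (χ : G → ℂ)‖ * ‖al b y (χ : G → ℂ)‖) ^ 2 ≤ (m : ℝ) * S := by
    calc ∑ χ : IrrCharacter G, (‖al a x (χ : G → ℂ)‖ * ‖al b y (χ : G → ℂ)‖) ^ 2
        ≤ ∑ χ : IrrCharacter G, (m : ℝ) * ‖al a x (χ : G → ℂ)‖ ^ 2 := by
          refine Finset.sum_le_sum fun χ _ => ?_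
          rw [mul_pow, mul_comm]
          exact mul_le_mul_of_nonneg_right (hβ χ) (sq_nonneg _)
      _ ≤ _ := by
          rw [← Finset.mul_sum]
          exact mul_le_mul_of_nonneg_left hα (Nat.cast_nonneg _)
  rw [← Finset.add_sum_erase Finset.univ _ (Finset.mem_univ (one1 G)), e1, e2, Complex.norm_natCast,
    Complex.norm_natCast, ← hF] at h1
  have hge : (A * B) ^ 2 ≤ m * S := by
    have h2 : (0 : ℝ) ≤ ∑ χ ∈ F, (‖al a x (χ : G → ℂ)‖ * ‖al b y (χ : G → ℂ)‖) ^ 2 :=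
      Finset.sum_nonneg fun _ _ => sq_nonneg _
    have h3 : (((A * B) ^ 2 : ℕ) : ℝ) ≤ ((m * S : ℕ) : ℝ) := by push_cast; linarith
    exact_mod_cast h3
  have hX : ∑ χ ∈ F, (‖al a x (χ : G → ℂ)‖ * ‖al b y (χ : G → ℂ)‖) ^ 2 ≤ ((m * S - (A * B) ^ 2 : ℕ) : ℝ) := by
    rw [Nat.cast_sub hge]
    push_cast
    linarith
  have hY : ∑ χ ∈ F, ‖(χ : G → ℂ) g‖ ^ 2 ≤ ((c - 1 : ℕ) : ℝ) := by
    rw [hF, H65.Ore.sum_erase_sq, Nat.cast_sub (hcg.trans hg), Nat.cast_one]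
    have : (Nat.card (centralizer ({g} : Set G)) : ℝ) ≤ c := by exact_mod_cast hg
    linarith
  have hT : ∑ χ ∈ F, ‖al a x (χ : G → ℂ)‖ * ‖al b y (χ : G → ℂ)‖ * ‖(χ : G → ℂ) g‖ / ‖(χ : G → ℂ) 1‖ ≤
      (∑ χ ∈ F, (‖al a x (χ : G → ℂ)‖ * ‖al b y (χ : G → ℂ)‖) * ‖(χ : G → ℂ) g‖) / d := by
    rw [Finset.sum_div]
    refine Finset.sum_le_sum fun χ hχ => ?_
    by_cases h2 : al a x (χ : G → ℂ) = 0
    · rw [h2, norm_zero]; simp
    by_cases h3 : al b y (χ : G → ℂ) = 0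
    · rw [h3, norm_zero]; simp
    have h4 := hd χ (H65.Ore.coe_ne_one (Finset.ne_of_mem_erase hχ)) h2 h3
    have h5 : (d : ℝ) ≤ ‖(χ : G → ℂ) 1‖ := by
      rw [Blocks.Knorr.charDegree_eq χ.2, Complex.norm_natCast]
      exact_mod_cast h4
    exact div_le_div_of_nonneg_left (by positivity) hd0 h5
  have hCS := Finset.sum_mul_sq_le_sq_mul_sq F
    (fun χ : IrrCharacter G => ‖al a x (χ : G → ℂ)‖ * ‖al b y (χ : G → ℂ)‖)
    (fun χ : IrrCharacter G => ‖(χ : G → ℂ) g‖)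
  refine lt_of_le_of_lt hT ?_
  rw [div_lt_iff₀ hd0]
  have h6 : (∑ χ ∈ F, (‖al a x (χ : G → ℂ)‖ * ‖al b y (χ : G → ℂ)‖) * ‖(χ : G → ℂ) g‖) ^ 2 <
      ((A : ℝ) * B * d) ^ 2 := by
    calc (∑ χ ∈ F, (‖al a x (χ : G → ℂ)‖ * ‖al b y (χ : G → ℂ)‖) * ‖(χ : G → ℂ) g‖) ^ 2
        ≤ _ := hCS
      _ ≤ ((m * S - (A * B) ^ 2 : ℕ) : ℝ) * ((c - 1 : ℕ) : ℝ) :=
          mul_le_mul hX hY (Finset.sum_nonneg fun _ _ => sq_nonneg _) (Nat.cast_nonneg _)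
      _ < _ := by exact_mod_cast hnum
  exact lt_of_pow_lt_pow_left₀ 2 (by positivity) h6

/-- **Products of four involutions.** -/
theorem i4_sum {a : ι → ℕ} {b : κ → ℕ} {x : ι → G} {y : κ → G} (hx : ∀ i, SR (x i)) (hy : ∀ j, SR (y j))
    {A B S m c d : ℕ} (hA : ∑ i, a i = A) (hB : ∑ j, b j = B) (hA0 : 0 < A) (hB0 : 0 < B)
    (hα : ∀ [Fintype (IrrCharacter G)], ∑ χ : IrrCharacter G, ‖al a x (χ : G → ℂ)‖ ^ 2 ≤ (S : ℝ))
    (hβ : ∀ χ : IrrCharacter G, ‖al b y (χ : G → ℂ)‖ ^ 2 ≤ (m : ℝ))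
    (hd : ∀ χ : IrrCharacter G, (χ : G → ℂ) ≠ 1 → al a x (χ : G → ℂ) ≠ 0 → al b y (χ : G → ℂ) ≠ 0 →
      d ≤ charDegree (χ : G → ℂ))
    (hnum : (m * S - (A * B) ^ 2) * (c - 1) < (A * B * d) ^ 2) {g : G}
    (hg : Nat.card (centralizer ({g} : Set G)) ≤ c) : I4 g := by
  have hfin : Finite (IrrCharacter G) := Core.finite_irr
  have := Fintype.ofFinite (IrrCharacter G)
  obtain ⟨i, j, h⟩ := prd_sum hA hB hA0 hB0 hα hβ hd hg hnum
  exact H529.Inv.Pair.i4_of_prd (hx i) (hy j) h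

/-- **The energy of a family of pairwise not conjugate elements.** -/
theorem sum_al [Fintype (IrrCharacter G)] (a : ι → ℕ) {x : ι → G}
    (h : ∀ i j, i ≠ j → ¬ IsConj (x i) (x j)) : ∑ χ : IrrCharacter G, ‖al a x (χ : G → ℂ)‖ ^ 2 =
      ((∑ i, a i ^ 2 * Nat.card (centralizer ({x i} : Set G)) : ℕ) : ℝ) := by
  classical
  have h1 : ∀ χ : IrrCharacter G, ((‖al a x (χ : G → ℂ)‖ ^ 2 : ℝ) : ℂ) =
      ∑ i, ∑ j, (a i : ℂ) * (a j : ℂ) * ((χ : G → ℂ) (x i) * conj ((χ : G → ℂ) (x j))) := by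
    intro χ
    rw [← Complex.normSq_eq_norm_sq, ← Complex.mul_conj, al, map_sum, Finset.sum_mul_sum]
    refine Finset.sum_congr rfl fun i _ => Finset.sum_congr rfl fun j _ => ?_
    rw [map_mul, Complex.conj_natCast]
    ring
  have h2 : ((∑ χ : IrrCharacter G, ‖al a x (χ : G → ℂ)‖ ^ 2 : ℝ) : ℂ) =
      ((∑ i, a i ^ 2 * Nat.card (centralizer ({x i} : Set G)) : ℕ) : ℂ) := by
    rw [Complex.ofReal_sum]
    simp only [h1]
    rw [Finset.sum_comm, Nat.cast_sum]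
    refine Finset.sum_congr rfl fun i _ => ?_
    rw [Finset.sum_comm, Finset.sum_eq_single i]
    · rw [← Finset.mul_sum, H686.CharKit.col_orth, if_pos (IsConj.refl _)]
      push_cast
      ring
    · intro j _ hj
      rw [← Finset.mul_sum, H686.CharKit.col_orth, if_neg (fun h3 => h i j (Ne.symm hj) h3), mul_zero]
    · intro hi
      exact absurd (Finset.mem_univ i) hi
  exact_mod_cast h2

end Cfsg.Agent.H569.Inv.Sum
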